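import Cfsg.Agent.Lib.PG.Gen

set_option autoImplicit false
set_option maxRecDepth 100000
set_option Elab.async false
set_option exponentiation.threshold 100000

namespace Cfsg.Agent.Golay.P9
open Cfsg.Agent.PG

noncomputable def n0 : Net :=
 (.cons 16 0x2088
 (.cons 8 0x200054
 (.cons 4 0xc08
 (.cons 2 0x200030
 (.cons 1 0x414400
 (.cons 2 0x1200
 (.cons 4 0x10c0c
 (.cons 8 0x200040
 (.cons 16 0x2080
 .nil)))))))))

noncomputable def n1 : Net :=
 (.cons 16 0x2193
 (.cons 8 0x240049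
 (.cons 4 0x200030c
 (.cons 2 0x1000122
 (.cons 1 0x1404014
 (.cons 2 0x202022
 (.cons 4 0x2000208
 (.cons 8 0x240049
 (.cons 16 0x2183
 .nil)))))))))

noncomputable def A : List Net := [n0, n1]

theorem hA : okA (2 ^ 5) A = true := by decide +kernel

theorem hlen : A.length = 2 := rfl

def tr1 : List ℕ := [1, 0x102, 0x103]

def ce1 : List (List (ℕ × ℕ)) := [[(1, 1)],
  [(2, 1)],
  [(0, 1)]]

noncomputable def cl1_l : List Claim := plainClaims 1 tr1 ce1

def tr0 : List ℕ := [1, 0x100, 0x101]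

def ce0 : List (List (ℕ × ℕ)) := [[(1, 1), (0, 0x103)],
  [(2, 1), (1, 0x103)],
  [(0, 1), (2, 0x103)]]

noncomputable def cl0_l : List Claim := plainClaims 0 tr0 ce0

theorem cl1_0 : chk A 5 (cl1_l) = true := by decide +kernel

theorem ok1 : plainOK A 1 2 2 tr1 ce1 = true := by decide +kernel

theorem orb1 : orbCardB A 2 1 2 3 3 = true := by decide +kernel

theorem cl0_0 : chk A 5 (cl0_l) = true := by decide +kernel

theorem ok0 : plainOK A 0 1 3 tr0 ce0 = true := by decide +kernel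

theorem orb0 : orbCardB A 2 0 3 3 3 = true := by decide +kernel

theorem card2 : Nat.card (K A 2) = 1 := card_K_last A (le_of_eq hlen)

theorem cl1 : ∀ c ∈ cl1_l, Holds A c :=
  (chk_spec hA cl1_0)

theorem stab1 : StabIs A 1 2 2 := stabIs_plain hA ok1 cl1

theorem card1 : Nat.card (K A 1) = 3 := card_K_step hA stab1 orb1 card2

theorem cl0 : ∀ c ∈ cl0_l, Holds A c :=
  (chk_spec hA cl0_0)

theorem stab0 : StabIs A 0 3 1 := stabIs_plain hA ok0 cl0

theorem card0 : Nat.card (K A 0) = 9 := card_K_step hA stab0 orb0 card1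

theorem fixTriv0 {B : Set ℕ} (h0 : 3 ∈ B) (h1 : 2 ∈ B) : FixTriv (K A 0) B :=
  fixTriv_step stab0 h0 <| fixTriv_step stab1 h1 <| fixTriv_last A (le_of_eq hlen) B

theorem fixTriv1 {B : Set ℕ} (h1 : 2 ∈ B) : FixTriv (K A 1) B :=
  fixTriv_step stab1 h1 <| fixTriv_last A (le_of_eq hlen) B


end Cfsg.Agent.Golay.P9
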